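import Mathlib
import Cfsg.Agent.CharLib.Core
import Cfsg.Agent.CharLib.Orth

/-! Characters of a group `K = Q ⋊ H` in which elements outside `Q` act freely on `Q`. -/

set_option autoImplicit false

namespace Cfsg.Agent.Lib.Helper24

open Cfsg Cfsg.Agent Cfsg.Agent.CharLib
open scoped ComplexConjugate

/-- a representation without trivial constituent has zero average -/
theorem sum_rep_eq_zero {H : Type*} [Group H] [Fintype H] {V : Type*} [AddCommGroup V] [Module ℂ V]
    [FiniteDimensional ℂ V] (σ : Representation ℂ H V) (h : ∑ u : H, σ.character u = 0) :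
    ∑ u : H, σ u = 0 := by
  haveI : Invertible (Fintype.card H : ℂ) :=
    invertibleOfNonzero (by exact_mod_cast Fintype.card_ne_zero)
  have hproj := Representation.isProj_averageMap σ
  have htr := hproj.trace
  have havg : Representation.averageMap σ = (⅟(Fintype.card H : ℂ)) • ∑ u : H, σ u := by
    simp [Representation.averageMap, GroupAlgebra.average, map_sum]
  have h0 : LinearMap.trace ℂ V (Representation.averageMap σ) = 0 := by
    rw [havg, map_smul, map_sum]
    have : ∑ u : H, LinearMap.trace ℂ V (σ u) = 0 := h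
    rw [this, smul_zero]
  rw [h0] at htr
  have h1 : Module.finrank ℂ σ.invariants = 0 := by exact_mod_cast htr.symm
  have h2 : σ.invariants = ⊥ := Submodule.finrank_eq_zero.1 h1
  have h3 : Representation.averageMap σ = 0 := by
    ext v
    have := hproj.map_mem v
    rw [h2, Submodule.mem_bot] at this
    simpa using this
  rw [havg] at h3
  have h4 := congrArg (fun T => (Fintype.card H : ℂ) • T) h3
  simpa [smul_smul] using h4

variable {K : Type*} [Group K] [Fintype K]

theorem sum_coset_eq_zero {ψ : K → ℂ} (hψ : IsCharacter K ψ) (Q : Subgroup K) [Fintype Q]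
    (h : ∑ u : Q, ψ u = 0) (n : K) : ∑ u : Q, ψ ((u : K) * n) = 0 := by
  obtain ⟨m, ρ, rfl⟩ := hψ
  let σ : Representation ℂ Q (Fin m → ℂ) := ρ.comp Q.subtype
  have h1 : ∑ u : Q, σ u = 0 := sum_rep_eq_zero σ h
  have h2 : ∑ u : Q, ρ.character ((u : K) * n) =
      LinearMap.trace ℂ _ ((∑ u : Q, σ u) * ρ n) := by
    rw [Finset.sum_mul, map_sum]
    refine Finset.sum_congr rfl fun u _ => ?_
    show LinearMap.trace ℂ _ (ρ ((u : K) * n)) = LinearMap.trace ℂ _ (ρ (u : K) * ρ n)
    rw [map_mul]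
  rw [h2, h1, zero_mul, map_zero]

/-- elements of a coset `Q n`, `n ∉ Q`, are all conjugate -/
theorem apply_mul_of_free {ψ : K → ℂ} (hψ : IsClassFunction K ψ) (Q : Subgroup K) [hQ : Q.Normal]
    (hfree : ∀ n : K, n ∉ Q → ∀ u ∈ Q, u * n = n * u → u = 1) {n : K} (hn : n ∉ Q) (u : Q) :
    ψ ((u : K) * n) = ψ n := by
  let c : Q → Q := fun v => ⟨(v : K) * n * (v : K)⁻¹ * n⁻¹, by
    have h1 := hQ.conj_mem _ (Q.inv_mem v.2) n
    have h2 := Q.mul_mem v.2 h1
    have h3 : (v : K) * (n * (v : K)⁻¹ * n⁻¹) = (v : K) * n * (v : K)⁻¹ * n⁻¹ := by group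
    rwa [h3] at h2⟩
  have hinj : Function.Injective c := by
    intro v w hvw
    have h1 : (v : K) * n * (v : K)⁻¹ * n⁻¹ = (w : K) * n * (w : K)⁻¹ * n⁻¹ :=
      congrArg Subtype.val hvw
    have h2 : (v : K) * n * (v : K)⁻¹ = (w : K) * n * (w : K)⁻¹ := mul_right_cancel h1
    have h3 : ((w : K)⁻¹ * v) * n = n * ((w : K)⁻¹ * v) := by
      calc ((w : K)⁻¹ * v) * n = (w : K)⁻¹ * ((v : K) * n * (v : K)⁻¹) * v := by group
        _ = (w : K)⁻¹ * ((w : K) * n * (w : K)⁻¹) * v := by rw [h2]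
        _ = n * ((w : K)⁻¹ * v) := by group
    have h4 := hfree n hn _ (Q.mul_mem (Q.inv_mem w.2) v.2) h3
    apply Subtype.ext
    exact (inv_mul_eq_one.1 h4).symm
  obtain ⟨v, hv⟩ := (Finite.injective_iff_surjective.1 hinj) u
  have h1 : (v : K) * n * (v : K)⁻¹ * n⁻¹ = u := congrArg Subtype.val hv
  have h2 : (u : K) * n = (v : K) * n * (v : K)⁻¹ := by rw [← h1]; group
  rw [h2]
  exact hψ n v

theorem apply_eq_zero_of_free {ψ : K → ℂ} (hψ : IsCharacter K ψ) (Q : Subgroup K) [hQ : Q.Normal]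
    [Fintype Q] (hfree : ∀ n : K, n ∉ Q → ∀ u ∈ Q, u * n = n * u → u = 1)
    (h : ∑ u : Q, ψ u = 0) {n : K} (hn : n ∉ Q) : ψ n = 0 := by
  have h1 := sum_coset_eq_zero hψ Q h n
  simp only [apply_mul_of_free (isClassFunction_of_char hψ) Q hfree hn] at h1
  rw [Finset.sum_const, Finset.card_univ, nsmul_eq_mul] at h1
  rcases mul_eq_zero.1 h1 with h2 | h2
  · exact absurd h2 (by exact_mod_cast Fintype.card_ne_zero)
  · exact h2

/-- `|H|` divides `ψ(1) - [ψ_Q, 1_Q]` -/
theorem exists_int_of_free {ψ : K → ℂ} (hψ : IsCharacter K ψ) (Q H : Subgroup K) [hQ : Q.Normal]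
    [Fintype Q] [Fintype H] (hc : Subgroup.IsComplement' Q H)
    (hfree : ∀ n : K, n ∉ Q → ∀ u ∈ Q, u * n = n * u → u = 1) :
    ∃ z : ℤ, (Nat.card Q : ℂ) * ψ 1 = ∑ u : Q, ψ u + (Nat.card Q : ℂ) * (Nat.card H : ℂ) * z := by
  classical
  obtain ⟨mK, hmK⟩ := classInner_char_nat hψ (isCharacter_of_irr (isIrrCharacter_one (G := K)))
  obtain ⟨mH, hmH⟩ := classInner_char_nat (isCharacter_restrict hψ H)
    (isCharacter_of_irr (isIrrCharacter_one (G := H)))
  have hK0 : (Nat.card K : ℂ) ≠ 0 := by exact_mod_cast Nat.card_pos.ne'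
  have hH0 : (Nat.card H : ℂ) ≠ 0 := by exact_mod_cast Nat.card_pos.ne'
  have hsK : ∑ k : K, ψ k = (Nat.card K : ℂ) * mK := by
    rw [← hmK, classInner]
    simp
  have hsH : ∑ h : H, ψ h = (Nat.card H : ℂ) * mH := by
    rw [← hmH, classInner]
    simp
  have hcard : (Nat.card K : ℂ) = (Nat.card Q : ℂ) * (Nat.card H : ℂ) := by
    rw [← hc.card_mul]; push_cast; ring
  have hsplit : ∑ k : K, ψ k = ∑ h : H, ∑ u : Q, ψ ((u : K) * h) := by
    rw [← (Equiv.ofBijective _ hc).sum_comp, Fintype.sum_prod_type, Finset.sum_comm]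
    rfl
  have hterm : ∀ h : H, ∑ u : Q, ψ ((u : K) * h) =
      (if h = 1 then ∑ u : Q, ψ u - (Nat.card Q : ℂ) * ψ 1 else 0) + (Nat.card Q : ℂ) * ψ h := by
    intro h
    split_ifs with h1
    · subst h1
      simp
    · have hn : (h : K) ∉ Q := by
        intro hq
        apply h1
        have := hc.disjoint.le_bot ⟨hq, h.2⟩
        exact Subtype.ext ((Subgroup.mem_bot).1 this)
      simp only [apply_mul_of_free (isClassFunction_of_char hψ) Q hfree hn]
      rw [Finset.sum_const, Finset.card_univ, nsmul_eq_mul, Nat.card_eq_fintype_card, zero_add]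
  rw [hsK] at hsplit
  simp only [hterm] at hsplit
  rw [Finset.sum_add_distrib, Finset.sum_ite_eq' , if_pos (Finset.mem_univ _), ← Finset.mul_sum, hsH,
    hcard] at hsplit
  refine ⟨(mH : ℤ) - mK, ?_⟩
  push_cast
  linear_combination hsplit

end Cfsg.Agent.Lib.Helper24
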