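import Mathlib
import Cfsg.Agent.Lib.Helper24.TISolv
import Cfsg.Agent.Lib.Helper24.UniqueSing
import Cfsg.Agent.Lib.Helper2.GlauFpf
import Cfsg.Agent.Lib.Helper10.FullyRam
import Cfsg.Agent.S0886

/-! Fully ramified characters under a cyclic Frobenius action. -/

set_option autoImplicit false

namespace Cfsg.Agent.Lib.Helper24.FullRamFrob

open Cfsg Cfsg.Agent Cfsg.Agent.CharLib Cfsg.Agent.CharLib.H2 Cfsg.Agent.Lib.Helper23
open scoped ComplexConjugate

/-- counting conjugates of a trivial-intersection set, equality version -/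
theorem ti_sum_eq {X : Type*} [Group X] [Fintype X] [DecidableEq X] (N : Subgroup X) (D E : Finset X)
    (hDN : ∀ n ∈ D, n ∈ N) (hTI : ∀ n ∈ D, ∀ g : X, g * n * g⁻¹ ∈ N → g ∈ N)
    (hE : ∀ n ∈ D, ∀ g : X, g * n * g⁻¹ ∈ E) (hcard : E.card ≤ N.index * D.card)
    (f : X → ℝ) (hf : ∀ g x, f (g * x * g⁻¹) = f x) :
    (N.index : ℝ) * ∑ n ∈ D, f n = ∑ g ∈ E, f g := by
  classical
  haveI : Fintype (X ⧸ N) := Fintype.ofFinite _
  have hinj : Set.InjOn (fun qn : (X ⧸ N) × X => qn.1.out * qn.2 * qn.1.out⁻¹)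
      ((Finset.univ ×ˢ D : Finset ((X ⧸ N) × X)) : Set ((X ⧸ N) × X)) := by
    rintro ⟨q, n⟩ h1 ⟨q', n'⟩ h2 h
    simp only [Finset.coe_product, Finset.coe_univ, Set.mem_prod, Set.mem_univ, true_and,
      Finset.mem_coe] at h1 h2
    simp only at h
    have h3 : (q'.out⁻¹ * q.out) * n * (q'.out⁻¹ * q.out)⁻¹ = n' := by
      have : q'.out⁻¹ * (q.out * n * q.out⁻¹) * q'.out = n' := by
        rw [h]; group
      rw [← this]; group
    have h4 : q'.out⁻¹ * q.out ∈ N := hTI n h1 _ (by rw [h3]; exact hDN _ h2)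
    have h5 : q' = q := by
      rw [← q'.out_eq, ← q.out_eq]
      exact QuotientGroup.eq.2 h4
    subst h5
    simp only [inv_mul_cancel, one_mul, inv_one, mul_one] at h3
    rw [h3]
  have himg : (Finset.univ ×ˢ D : Finset ((X ⧸ N) × X)).image
      (fun qn : (X ⧸ N) × X => qn.1.out * qn.2 * qn.1.out⁻¹) = E := by
    apply Finset.eq_of_subset_of_card_le
    · intro g hg
      obtain ⟨⟨q, n⟩, h1, rfl⟩ := Finset.mem_image.1 hg
      exact hE n (Finset.mem_product.1 h1).2 _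
    · rw [Finset.card_image_of_injOn hinj, Finset.card_product, Finset.card_univ,
        ← Nat.card_eq_fintype_card]
      exact hcard
  calc (N.index : ℝ) * ∑ n ∈ D, f n
      = ∑ qn ∈ (Finset.univ ×ˢ D : Finset ((X ⧸ N) × X)), f (qn.1.out * qn.2 * qn.1.out⁻¹) := by
        rw [Finset.sum_product]
        simp only [hf]
        rw [Finset.sum_const, Finset.card_univ, nsmul_eq_mul, Subgroup.index, Nat.card_eq_fintype_card]
    _ = ∑ g ∈ (Finset.univ ×ˢ D : Finset ((X ⧸ N) × X)).image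
          (fun qn : (X ⧸ N) × X => qn.1.out * qn.2 * qn.1.out⁻¹), f g := (Finset.sum_image hinj).symm
    _ = ∑ g ∈ E, f g := by rw [himg]

theorem sum_mem_eq {H : Type*} [Group H] [Fintype H] (Z : Subgroup H) [Fintype Z]
    [DecidablePred (· ∈ Z)] {R : Type*} [AddCommMonoid R] (F : H → R) :
    ∑ h ∈ Finset.univ.filter (fun h : H => h ∈ Z), F h = ∑ z : Z, F z := by
  rw [Finset.sum_subtype (Finset.univ.filter (fun x : H => x ∈ Z)) (p := fun x => x ∈ Z)
    (by simp) F]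

open Classical in
theorem cyclic_quot_arith {H : Type*} [Group H] [Fintype H] (Z : Subgroup H) [hZ : Z.Normal]
    [Fintype Z] (hab : ∀ a b : H ⧸ Z, a * b = b * a) (m : ℕ) (hm : Z.index = m) (hm2 : 2 ≤ m)
    {θh : H → ℂ} (hθh : IsIrrCharacter H θh) (hθZ : IsIrrCharacter Z (fun z : Z => θh z))
    {Ξ : H → ℂ} (hΞ : IsCharacter H Ξ) (e : ℕ) (hres : ∀ z : Z, Ξ z = (e : ℂ) * θh z)
    (hsum : ∑ h ∈ Finset.univ.filter (fun h : H => h ∉ Z), Complex.normSq (Ξ h) =
      ((m : ℝ) - 1) * Nat.card Z) :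
    (m : ℤ) ∣ (e : ℤ) - 1 ∨ (m : ℤ) ∣ (e : ℤ) + 1 := by
  classical
  obtain ⟨mu, hmu, hmu2⟩ := exists_mult hΞ
  have hgal := H6.gallagher Z hθh hθZ
  have hZ0 : (Nat.card Z : ℂ) ≠ 0 := by exact_mod_cast Nat.card_pos.ne'
  have hH0 : (Nat.card H : ℂ) ≠ 0 := by exact_mod_cast Nat.card_pos.ne'
  have hm0 : (m : ℂ) ≠ 0 := by
    have : m ≠ 0 := by omega
    exact_mod_cast this
  have hcardH : (Nat.card H : ℂ) = (m : ℂ) * Nat.card Z := by
    rw [← Z.index_mul_card, hm]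
    push_cast
    ring
  let infl : IrrCharacter (H ⧸ Z) → (H → ℂ) := fun l h => (l : H ⧸ Z → ℂ) (QuotientGroup.mk' Z h)
  have hinfl : ∀ l h, infl l h = (l : H ⧸ Z → ℂ) (QuotientGroup.mk' Z h) := fun _ _ => rfl
  have hinfl_irr : ∀ l, IsIrrCharacter H (infl l) := fun l =>
    isIrrCharacter_comp_of_surjective l.2 (QuotientGroup.mk' Z) (QuotientGroup.mk'_surjective Z)
  have hl1 : ∀ l : IrrCharacter (H ⧸ Z), (l : H ⧸ Z → ℂ) 1 = 1 := L.irr_apply_one_of_comm hab
  have hinflZ : ∀ l, ∀ z ∈ Z, infl l z = 1 := by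
    intro l z hz
    rw [hinfl, ← hl1 l]
    exact congrArg (l : H ⧸ Z → ℂ) ((QuotientGroup.eq_one_iff z).2 hz)
  have hmem : ∀ l, infl l ∈ {β : H → ℂ | IsIrrCharacter H β ∧
      classInner (indFun Z (fun _ => (1 : ℂ))) β ≠ 0} := by
    intro l
    refine ⟨hinfl_irr l, ?_⟩
    rw [frobenius_reciprocity Z _ (isClassFunction_of_irr (hinfl_irr l)), classInner]
    have h1 : ∀ x : Z, (1 : ℂ) * conj (infl l x) = 1 := by
      intro x
      rw [one_mul, hinflZ l x x.2, map_one]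
    simp only [h1, Finset.sum_const, Finset.card_univ, nsmul_eq_mul, mul_one]
    rw [← Nat.card_eq_fintype_card, inv_mul_cancel₀ hZ0]
    exact one_ne_zero
  let tw : IrrCharacter (H ⧸ Z) → IrrCharacter H := fun l => ⟨infl l * θh, (hgal.mapsTo (hmem l)).1⟩
  have htw : ∀ l h, (tw l : H → ℂ) h = infl l h * θh h := fun _ _ => rfl
  have htw_inj : Function.Injective tw := by
    intro l l' h
    have h1 : infl l * θh = infl l' * θh := congrArg Subtype.val h
    have h2 := hgal.injOn (hmem l) (hmem l') h1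
    apply Subtype.ext
    funext q
    obtain ⟨h, rfl⟩ := QuotientGroup.mk'_surjective Z q
    exact congrFun h2 h
  have hcard : (m : ℤ) = Fintype.card (IrrCharacter (H ⧸ Z)) := by
    have h1 : Nat.card (IrrCharacter (H ⧸ Z)) = m := by
      rw [card_irrCharacter, ← hm, Subgroup.index]
      symm
      refine Nat.card_congr (Equiv.ofBijective ConjClasses.mk ⟨?_, ConjClasses.mk_surjective⟩)
      intro a b h
      obtain ⟨c, hc⟩ := isConj_iff.1 (ConjClasses.mk_eq_mk_iff_isConj.1 h)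
      rw [← hc, hab c a, mul_assoc, mul_inv_cancel, mul_one]
    rw [← Nat.card_eq_fintype_card, h1]
  -- orthogonality for the quotient
  have horth : ∀ h : H, ∑ l : IrrCharacter (H ⧸ Z), conj (infl l h) = if h ∈ Z then (m : ℂ) else 0 := by
    intro h
    have h1 := sum_irr_one_mul (G := H ⧸ Z) (QuotientGroup.mk' Z h)
    simp only [hl1, one_mul] at h1
    rw [← map_sum]
    have h2 : ∑ l : IrrCharacter (H ⧸ Z), infl l h =
        ∑ l : IrrCharacter (H ⧸ Z), (l : H ⧸ Z → ℂ) (QuotientGroup.mk' Z h) := rfl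
    rw [h2, h1]
    have h3 : (QuotientGroup.mk' Z h = 1) ↔ h ∈ Z := QuotientGroup.eq_one_iff h
    by_cases hh : h ∈ Z
    · rw [if_pos hh, if_pos (h3.2 hh)]
      have : Nat.card (H ⧸ Z) = m := hm
      rw [this, Complex.conj_natCast]
    · rw [if_neg hh, if_neg (fun h4 => hh (h3.1 h4)), map_zero]
  have hθnorm : ∑ z : Z, θh z * conj (θh z) = Nat.card Z := by
    have h1 := classInner_irr_self hθZ
    rw [classInner, inv_mul_eq_one₀ hZ0] at h1
    exact h1.symm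
  -- (1)
  have hsumA : ∑ l, (mu (tw l) : ℂ) = e := by
    simp_rw [← hmu2]
    unfold classInner
    rw [← Finset.mul_sum, Finset.sum_comm]
    have h1 : ∀ h : H, ∑ l : IrrCharacter (H ⧸ Z), Ξ h * conj ((tw l : H → ℂ) h) =
        if h ∈ Z then Ξ h * conj (θh h) * m else 0 := by
      intro h
      simp only [htw, map_mul]
      have : ∀ l : IrrCharacter (H ⧸ Z), Ξ h * (conj (infl l h) * conj (θh h)) =
          (Ξ h * conj (θh h)) * conj (infl l h) := fun l => by ring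
      simp only [this]
      rw [← Finset.mul_sum, horth]
      split_ifs <;> simp
    simp only [h1]
    rw [← Finset.sum_filter, sum_mem_eq Z (fun h => Ξ h * conj (θh h) * m)]
    simp only [hres]
    have h2 : ∀ z : Z, (e : ℂ) * θh z * conj (θh z) * m = (e * m : ℂ) * (θh z * conj (θh z)) :=
      fun z => by ring
    simp only [h2]
    rw [← Finset.mul_sum, hθnorm, hcardH]
    field_simp
  -- (2)
  have hdeg : ∑ ξ : IrrCharacter H, mu ξ * charDegree (ξ : H → ℂ) = e * charDegree θh := by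
    have h1 : Ξ 1 = ∑ ξ : IrrCharacter H, (mu ξ : ℂ) * (ξ : H → ℂ) 1 := by
      conv_lhs => rw [hmu]
      simp only [Finset.sum_apply, Pi.smul_apply, smul_eq_mul]
    have h2 := hres 1
    rw [Subgroup.coe_one, h1] at h2
    have h3 : ((∑ ξ : IrrCharacter H, mu ξ * charDegree (ξ : H → ℂ) : ℕ) : ℂ) =
        ((e * charDegree θh : ℕ) : ℂ) := by
      push_cast
      rw [charDegree_cast (isCharacter_of_irr hθh), ← h2]
      exact Finset.sum_congr rfl fun ξ _ => by rw [charDegree_cast_irr]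
    exact_mod_cast h3
  have hsumA' : ∑ l, mu (tw l) = e := by exact_mod_cast hsumA
  have hdtw : ∀ l, charDegree (tw l : H → ℂ) = charDegree θh := by
    intro l
    unfold charDegree
    rw [htw, hinflZ l 1 Z.one_mem, one_mul]
  have hvan : ∀ ξ ∈ (Finset.univ.image tw)ᶜ, mu ξ = 0 := by
    have h1 := Finset.sum_add_sum_compl (Finset.univ.image tw)
      (fun ξ : IrrCharacter H => mu ξ * charDegree (ξ : H → ℂ))
    rw [hdeg, Finset.sum_image (fun x _ y _ h => htw_inj h)] at h1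
    simp only [hdtw] at h1
    rw [← Finset.sum_mul, hsumA'] at h1
    have h2 : ∑ ξ ∈ (Finset.univ.image tw)ᶜ, mu ξ * charDegree (ξ : H → ℂ) = 0 := by omega
    intro ξ hξ
    have h3 := (Finset.sum_eq_zero_iff.1 h2) ξ hξ
    rcases Nat.mul_eq_zero.1 h3 with h4 | h4
    · exact h4
    · exact absurd h4 (charDegree_pos_irr ξ).ne'
  -- (3)
  have hnorm : classInner Ξ Ξ = ∑ l, (mu (tw l) : ℂ) ^ 2 := by
    conv_lhs => rw [hmu]
    rw [classInner_sum_sum]
    simp only [Complex.conj_natCast]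
    rw [← Finset.sum_add_sum_compl (Finset.univ.image tw),
      Finset.sum_image (fun x _ y _ h => htw_inj h)]
    have h2 : ∑ ξ ∈ (Finset.univ.image tw)ᶜ, (mu ξ : ℂ) * (mu ξ : ℂ) = 0 :=
      Finset.sum_eq_zero fun ξ hξ => by rw [hvan ξ hξ]; simp
    rw [h2, add_zero]
    exact Finset.sum_congr rfl fun l _ => by ring
  -- (4)
  have hnorm2 : classInner Ξ Ξ = (Nat.card H : ℂ)⁻¹ * ((e : ℂ) ^ 2 * Nat.card Z +
      ((m : ℂ) - 1) * Nat.card Z) := by
    unfold classInner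
    congr 1
    rw [← Finset.sum_filter_add_sum_filter_not Finset.univ (fun h : H => h ∈ Z)]
    congr 1
    · rw [sum_mem_eq Z (fun h => Ξ h * conj (Ξ h))]
      simp only [hres, map_mul, Complex.conj_natCast]
      have h2 : ∀ z : Z, (e : ℂ) * θh z * ((e : ℂ) * conj (θh z)) = (e : ℂ) ^ 2 * (θh z * conj (θh z)) :=
        fun z => by ring
      simp only [h2]
      rw [← Finset.mul_sum, hθnorm]
    · simp only [Complex.mul_conj]
      rw [← Complex.ofReal_sum, hsum]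
      push_cast
      ring
  have hkey : (m : ℂ) * ∑ l, (mu (tw l) : ℂ) ^ 2 = (e : ℂ) ^ 2 + (m : ℂ) - 1 := by
    rw [← hnorm, hnorm2, hcardH]
    field_simp
    ring
  have hkeyZ : (m : ℤ) * ∑ l, (mu (tw l) : ℤ) ^ 2 - (∑ l, (mu (tw l) : ℤ)) ^ 2 = (m : ℤ) - 1 := by
    have h1 : (m : ℤ) * ∑ l, (mu (tw l) : ℤ) ^ 2 = (e : ℤ) ^ 2 + (m : ℤ) - 1 := by exact_mod_cast hkey
    have h2 : ∑ l, (mu (tw l) : ℤ) = (e : ℤ) := by exact_mod_cast hsumA'
    rw [h1, h2]
    ring
  have hsumZ : ∑ l, (mu (tw l) : ℤ) = (e : ℤ) := by exact_mod_cast hsumA'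
  rcases Helper2.quad_class (fun l => (mu (tw l) : ℤ)) (m : ℤ) hcard (by exact_mod_cast hm2) with
    ⟨h1, _⟩ | ⟨_, q, l₀, ε, hε, h2⟩ | h1
  · exfalso
    rw [hkeyZ] at h1
    have : (2 : ℤ) ≤ m := by exact_mod_cast hm2
    omega
  · have h3 : (e : ℤ) = (m : ℤ) * q + ε := by
      rw [← hsumZ]
      simp only [h2]
      rw [Finset.sum_add_distrib, Finset.sum_const, Finset.card_univ, Finset.sum_ite_eq']
      simp only [Finset.mem_univ, if_true, nsmul_eq_mul]
      rw [hcard]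
    rcases hε with rfl | rfl
    · left
      exact ⟨q, by rw [h3]; ring⟩
    · right
      exact ⟨q, by rw [h3]; ring⟩
  · exfalso
    rw [hkeyZ] at h1
    exact lt_irrefl _ h1

open Classical in
theorem sum_compl_eq {Γ : Type*} [Group Γ] [Fintype Γ] (G N H : Subgroup Γ) [hG : G.Normal]
    [Fintype G] (hNH : N ≤ H) (hNG : N ≤ G) (hHG : ∀ h ∈ H, h ∈ G → h ∈ N)
    (hΓ : ∀ γ : Γ, ∃ t ∈ G, ∃ h ∈ H, γ = t * h)
    (hfrob : ∀ x : Γ, x ∉ G → ∀ g : Γ, g ∈ G → x * g * x⁻¹ * g⁻¹ ∈ N → g ∈ N)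
    (ψ : IrrCharacter Γ) (hψG : IsIrrCharacter G (fun g : G => (ψ : Γ → ℂ) g)) :
    ∑ γ ∈ Finset.univ.filter (fun γ : Γ => γ ∈ H ∧ γ ∉ G), Complex.normSq ((ψ : Γ → ℂ) γ) =
      ((G.index : ℝ) - 1) * Nat.card N := by
  have htop : H ⊔ G = ⊤ := by
    rw [eq_top_iff]
    intro γ _
    obtain ⟨t, ht, h, hh, rfl⟩ := hΓ γ
    exact (H ⊔ G).mul_mem (Subgroup.mem_sup_right ht) (Subgroup.mem_sup_left hh)
  have hinf : G ⊓ H = N := le_antisymm (fun x hx => hHG x hx.2 hx.1) (le_inf hNG hNH)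
  have hcH : G.index * Nat.card N = Nat.card H := by
    have hrel : N.relIndex H * Nat.card N = Nat.card H := by
      have h1 := (N.subgroupOf H).index_mul_card
      rw [Nat.card_congr (Subgroup.subgroupOfEquivOfLe hNH).toEquiv] at h1
      exact h1
    rw [← hrel]
    congr 1
    rw [← hinf, Subgroup.inf_relIndex_right,
      ← Subgroup.relIndex_sup_right H G, htop, Subgroup.relIndex_top_right]
  have hcΓ : G.index * Nat.card G = Nat.card Γ := G.index_mul_card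
  have hcΓ' : H.index * Nat.card H = Nat.card Γ := H.index_mul_card
  have hidx0 : 0 < G.index := Nat.pos_of_ne_zero Subgroup.index_ne_zero_of_finite
  have hidxH0 : 0 < H.index := Nat.pos_of_ne_zero Subgroup.index_ne_zero_of_finite
  have hcG : H.index * Nat.card N = Nat.card G := by
    apply Nat.eq_of_mul_eq_mul_left hidx0
    rw [hcΓ, ← hcΓ', ← hcH]
    ring
  have hcardmem : ∀ K : Subgroup Γ, (Finset.univ.filter (fun γ : Γ => γ ∈ K)).card = Nat.card K := by
    intro K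
    rw [Nat.card_eq_fintype_card, Fintype.card_subtype]
  have hDcard : (Finset.univ.filter (fun γ : Γ => γ ∈ H ∧ γ ∉ G)).card + Nat.card N = Nat.card H := by
    rw [← hcardmem H, ← hcardmem N,
      ← Finset.card_filter_add_card_filter_not (s := Finset.univ.filter (fun γ : Γ => γ ∈ H))
        (fun γ : Γ => γ ∈ G), Finset.filter_filter, Finset.filter_filter, add_comm]
    congr 2
    ext γ
    simp only [Finset.mem_filter, Finset.mem_univ, true_and]
    exact ⟨fun h => ⟨hNH h, hNG h⟩, fun h => hHG γ h.1 h.2⟩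
  have hEcard : (Finset.univ.filter (fun γ : Γ => γ ∉ G)).card + Nat.card G = Nat.card Γ := by
    rw [← hcardmem G, add_comm, Finset.card_filter_add_card_filter_not, Finset.card_univ,
      Nat.card_eq_fintype_card]
  have hT := ti_sum_eq H (Finset.univ.filter (fun γ : Γ => γ ∈ H ∧ γ ∉ G))
    (Finset.univ.filter (fun γ : Γ => γ ∉ G))
    (fun n hn => (Finset.mem_filter.1 hn).2.1)
    (by
      intro n hn g hg
      obtain ⟨-, hnH, hnG⟩ := Finset.mem_filter.1 hn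
      obtain ⟨t, ht, h, hh, rfl⟩ := hΓ g
      have h1 : h * n * h⁻¹ ∈ H := H.mul_mem (H.mul_mem hh hnH) (H.inv_mem hh)
      have h2 : h * n * h⁻¹ ∉ G := by
        intro h3
        apply hnG
        have := hG.conj_mem _ h3 h⁻¹
        simpa [mul_assoc] using this
      have h3 : t * (h * n * h⁻¹) * t⁻¹ ∈ H := by
        convert hg using 1
        group
      have h4 : (h * n * h⁻¹) * t * (h * n * h⁻¹)⁻¹ * t⁻¹ ∈ N := by
        apply hHG
        · have : (h * n * h⁻¹) * (t * (h * n * h⁻¹) * t⁻¹)⁻¹ ∈ H := H.mul_mem h1 (H.inv_mem h3)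
          convert this using 1
          group
        · exact G.mul_mem (hG.conj_mem t ht _) (G.inv_mem ht)
      have h5 := hfrob _ h2 t ht h4
      exact H.mul_mem (hNH h5) hh)
    (by
      intro n hn g
      obtain ⟨-, -, hnG⟩ := Finset.mem_filter.1 hn
      rw [Finset.mem_filter]
      refine ⟨Finset.mem_univ _, fun h3 => hnG ?_⟩
      have := hG.conj_mem _ h3 g⁻¹
      simpa [mul_assoc] using this)
    (by
      have h1 : H.index * ((Finset.univ.filter (fun γ : Γ => γ ∈ H ∧ γ ∉ G)).card + Nat.card N) =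
          (Finset.univ.filter (fun γ : Γ => γ ∉ G)).card + Nat.card G := by
        rw [hDcard, hEcard, hcΓ']
      rw [mul_add, hcG] at h1
      omega)
    (fun γ => Complex.normSq ((ψ : Γ → ℂ) γ))
    (fun g x => by rw [isClassFunction_of_irr ψ.2 x g])
  have hE : ∑ γ ∈ Finset.univ.filter (fun γ : Γ => γ ∉ G), Complex.normSq ((ψ : Γ → ℂ) γ) =
      (Nat.card Γ : ℝ) - Nat.card G := by
    have h1 := Helper10.sum_normSq_irr ψ
    have h2 := Helper10.sum_normSq_irr (⟨_, hψG⟩ : IrrCharacter G)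
    rw [← Finset.sum_filter_add_sum_filter_not Finset.univ (fun γ : Γ => γ ∈ G),
      sum_mem_eq G (fun γ => Complex.normSq ((ψ : Γ → ℂ) γ))] at h1
    simp only at h2
    rw [h2] at h1
    linarith
  rw [hE] at hT
  have h6 : (H.index : ℝ) ≠ 0 := by exact_mod_cast hidxH0.ne'
  apply mul_left_cancel₀ h6
  rw [hT]
  have h7 : (Nat.card Γ : ℝ) = G.index * Nat.card G := by exact_mod_cast hcΓ.symm
  have h8 : (Nat.card G : ℝ) = H.index * Nat.card N := by exact_mod_cast hcG.symm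
  rw [h7, h8]
  ring

theorem fr_of_ind {G : Type*} [Group G] [Fintype G] (N : Subgroup G) [hN : N.Normal] [Fintype N]
    (θ : IrrCharacter N)
    (hinv : ∀ (g : G) (n : N), (θ : N → ℂ) ⟨g * n * g⁻¹, hN.conj_mem n n.2 g⟩ = (θ : N → ℂ) n)
    (χ : IrrCharacter G) (e : ℕ)
    (hram : indFun N (θ : N → ℂ) = fun g => (e : ℂ) * (χ : G → ℂ) g) :
    (∀ n : N, (χ : G → ℂ) n = (e : ℂ) * (θ : N → ℂ) n) ∧ e ^ 2 = N.index := by
  have hfr := frobenius_reciprocity N (θ : N → ℂ) (isClassFunction_of_irr χ.2)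
  have h1 : classInner (indFun N (θ : N → ℂ)) (χ : G → ℂ) = e := by
    rw [hram]
    have : (fun g => (e : ℂ) * (χ : G → ℂ) g) = (e : ℂ) • (χ : G → ℂ) := rfl
    rw [this, classInner_smul_left, classInner_irr_self χ.2, mul_one]
  have h2 : classInner (fun n : N => (χ : G → ℂ) n) (θ : N → ℂ) = e := by
    rw [← classInner_conj_symm, ← hfr, h1, Complex.conj_natCast]
  have h10 : (e : ℂ) * (χ : G → ℂ) 1 = (N.index : ℂ) * (θ : N → ℂ) 1 := by
    rw [← indFun_apply_one N (θ : N → ℂ), hram]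
  have hθ1 := irr_apply_one_ne_zero θ
  have hidx : (N.index : ℂ) ≠ 0 := by
    exact_mod_cast (Subgroup.index_ne_zero_of_finite (H := N))
  have he0 : (e : ℂ) ≠ 0 := by
    intro h
    rw [h, zero_mul] at h10
    exact (mul_ne_zero hidx hθ1) h10.symm
  have h3 := H6.restrict_eq_smul_of_invariant N hN χ.2 θ.2 (by rw [h2]; exact he0) hinv
  rw [h2] at h3
  have hres : ∀ n : N, (χ : G → ℂ) n = (e : ℂ) * (θ : N → ℂ) n := fun n => congrFun h3 n
  refine ⟨hres, ?_⟩
  have h4 := hres 1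
  rw [Subgroup.coe_one] at h4
  rw [h4, ← mul_assoc] at h10
  have h5 : ((e ^ 2 : ℕ) : ℂ) = (N.index : ℂ) := by
    push_cast
    rw [sq]
    exact mul_right_cancel₀ hθ1 h10
  exact_mod_cast h5

theorem main {Γ : Type*} [Group Γ] [Fintype Γ] (G N : Subgroup Γ) [hG : G.Normal] [hN : N.Normal]
    [Fintype G] [Fintype N] (hNG : N ≤ G) (hGlt : G ≠ ⊤) (hcyc : IsCyclic (Γ ⧸ G))
    (hfrob : ∀ x : Γ, x ∉ G → ∀ g : Γ, g ∈ G → x * g * x⁻¹ * g⁻¹ ∈ N → g ∈ N)
    (θ : IrrCharacter N)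
    (hinv : ∀ (x : Γ) (n : N), (θ : N → ℂ) ⟨x * n * x⁻¹, hN.conj_mem n n.2 x⟩ = (θ : N → ℂ) n)
    (χ : IrrCharacter G) (e : ℕ)
    (hram : indFun (N.subgroupOf G) (fun n : N.subgroupOf G => (θ : N → ℂ) ⟨(n : G), n.2⟩) =
      fun g => (e : ℂ) * (χ : G → ℂ) g) :
    (G.index : ℤ) ∣ (e : ℤ) - 1 ∨ (G.index : ℤ) ∣ (e : ℤ) + 1 := by
  classical
  haveI hN' : (N.subgroupOf G).Normal := hN.subgroupOf G
  let eN : N.subgroupOf G ≃* N := Subgroup.subgroupOfEquivOfLe hNG
  let θ' : IrrCharacter (N.subgroupOf G) := ⟨fun n => (θ : N → ℂ) ⟨(n : G), n.2⟩,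
    isIrrCharacter_comp_of_surjective θ.2 eN.toMonoidHom eN.surjective⟩
  obtain ⟨hres, he⟩ := fr_of_ind (N.subgroupOf G) θ' (fun g n => hinv g ⟨(n : G), n.2⟩) χ e hram
  have hvan : ∀ g : G, (g : Γ) ∉ N → (χ : G → ℂ) g = 0 := fun g hg =>
    Helper10.fr_vanish (N.subgroupOf G) χ θ' e he hres (h := g) hg
  have hresN : ∀ (g : G) (hg : (g : Γ) ∈ N), (χ : G → ℂ) g = (e : ℂ) * (θ : N → ℂ) ⟨g, hg⟩ :=
    fun g hg => hres ⟨g, hg⟩
  have hinvχ : ∀ (x : Γ) (g : G), (χ : G → ℂ) ⟨x * g * x⁻¹, hG.conj_mem g g.2 x⟩ = (χ : G → ℂ) g := by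
    intro x g
    by_cases hg : (g : Γ) ∈ N
    · rw [hresN g hg, hresN _ (hN.conj_mem _ hg x)]
      congr 1
      exact hinv x ⟨g, hg⟩
    · rw [hvan g hg, hvan _ (fun h => hg (by
        have := hN.conj_mem _ h x⁻¹
        simpa [mul_assoc] using this))]
  obtain ⟨ψ, hψ, hψG⟩ := S0886.result G hcyc χ χ.2 hinvχ
  obtain ⟨xb, hxb⟩ := hcyc.exists_generator
  obtain ⟨x, rfl⟩ := QuotientGroup.mk_surjective xb
  have hpow : ∀ γ : Γ, ∃ i : ℤ, γ * (x ^ i)⁻¹ ∈ G := by
    intro γ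
    obtain ⟨i, hi⟩ := Subgroup.mem_zpowers_iff.1 (hxb (γ : Γ ⧸ G))
    refine ⟨i, ?_⟩
    rw [← QuotientGroup.eq_one_iff, QuotientGroup.mk_mul, QuotientGroup.mk_inv, QuotientGroup.mk_zpow,
      hi, mul_inv_cancel]
  have hxG : x ∉ G := by
    intro hx
    apply hGlt
    rw [eq_top_iff]
    intro γ _
    obtain ⟨i, hi⟩ := hpow γ
    have := G.mul_mem hi (G.zpow_mem hx i)
    simpa using this
  obtain ⟨H, hHdef⟩ : ∃ H : Subgroup Γ, H = N ⊔ Subgroup.zpowers x := ⟨_, rfl⟩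
  have hNH : N ≤ H := by rw [hHdef]; exact le_sup_left
  have hxH : ∀ i : ℤ, x ^ i ∈ H := fun i => by
    rw [hHdef]
    exact Subgroup.mem_sup_right (Subgroup.zpow_mem_zpowers x i)
  have hHG : ∀ h ∈ H, h ∈ G → h ∈ N := by
    intro h hh hhG
    have hh' : h ∈ ((N ⊔ Subgroup.zpowers x : Subgroup Γ) : Set Γ) := by rw [← hHdef]; exact hh
    rw [Subgroup.normal_mul] at hh'
    obtain ⟨n, hn, y, hy, rfl⟩ := Set.mem_mul.1 hh'
    obtain ⟨i, rfl⟩ := Subgroup.mem_zpowers_iff.1 hy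
    have h1 : x ^ i ∈ G := by
      have := G.mul_mem (G.inv_mem (hNG hn)) hhG
      simpa using this
    have h2 : x ^ i ∈ N := hfrob x hxG (x ^ i) h1 (by
      have : x * x ^ i * x⁻¹ * (x ^ i)⁻¹ = 1 := by group
      rw [this]
      exact N.one_mem)
    exact N.mul_mem hn h2
  have hΓ : ∀ γ : Γ, ∃ t ∈ G, ∃ h ∈ H, γ = t * h := by
    intro γ
    obtain ⟨i, hi⟩ := hpow γ
    exact ⟨_, hi, _, hxH i, by group⟩
  have hψGirr : IsIrrCharacter G (fun g : G => ψ g) := by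
    have : (fun g : G => ψ g) = (χ : G → ℂ) := funext hψG
    rw [this]
    exact χ.2
  have hS := sum_compl_eq G N H hNH hNG hHG hΓ hfrob ⟨ψ, hψ⟩ hψGirr
  let f : H →* Γ ⧸ G := (QuotientGroup.mk' G).comp H.subtype
  have hf : Function.Surjective f := by
    intro q
    obtain ⟨i, hi⟩ := Subgroup.mem_zpowers_iff.1 (hxb q)
    exact ⟨⟨x ^ i, hxH i⟩, by rw [← hi]; rfl⟩
  have hkerG : ∀ h : H, h ∈ f.ker ↔ (h : Γ) ∈ G := by
    intro h
    rw [MonoidHom.mem_ker]
    exact QuotientGroup.eq_one_iff (h : Γ)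
  have hker : ∀ h : H, h ∈ f.ker ↔ (h : Γ) ∈ N := by
    intro h
    rw [hkerG]
    exact ⟨fun h1 => hHG h h.2 h1, fun h1 => hNG h1⟩
  let E : H ⧸ f.ker ≃* Γ ⧸ G := QuotientGroup.quotientKerEquivOfSurjective f hf
  have hcomm : ∀ a b : Γ ⧸ G, a * b = b * a := by
    intro a b
    obtain ⟨i, rfl⟩ := Subgroup.mem_zpowers_iff.1 (hxb a)
    obtain ⟨j, rfl⟩ := Subgroup.mem_zpowers_iff.1 (hxb b)
    exact (Commute.refl _).zpow_zpow i j
  have hab : ∀ a b : H ⧸ f.ker, a * b = b * a := fun a b =>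
    E.injective (by rw [map_mul, map_mul]; exact hcomm _ _)
  have hm : f.ker.index = G.index := Nat.card_congr E.toEquiv
  have hm2 : 2 ≤ G.index := by
    have h1 : G.index ≠ 1 := fun h => hGlt (Subgroup.index_eq_one.1 h)
    have h0 : G.index ≠ 0 := Subgroup.index_ne_zero_of_finite
    omega
  let eZ : f.ker →* N :=
    { toFun := fun z => ⟨((z : H) : Γ), (hker z).1 z.2⟩
      map_one' := rfl
      map_mul' := fun _ _ => rfl }
  have heZs : Function.Surjective eZ := fun n => ⟨⟨⟨n, hNH n.2⟩, (hker _).2 n.2⟩, rfl⟩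
  have heZi : Function.Injective eZ := fun a b h =>
    Subtype.ext (Subtype.ext (congrArg (fun n : N => (n : Γ)) h))
  have hcardZ : Nat.card f.ker = Nat.card N := Nat.card_congr (Equiv.ofBijective eZ ⟨heZi, heZs⟩)
  have hθZirr : IsIrrCharacter f.ker (fun z => (θ : N → ℂ) (eZ z)) :=
    isIrrCharacter_comp_of_surjective θ.2 eZ heZs
  haveI hcycZ : IsCyclic (H ⧸ f.ker) := isCyclic_of_surjective E.symm E.symm.surjective
  obtain ⟨θh, hθh, hθhZ⟩ := S0886.result f.ker hcycZ (fun z => (θ : N → ℂ) (eZ z)) hθZirr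
    (fun h z => hinv h (eZ z))
  have hθZ : IsIrrCharacter f.ker (fun z : f.ker => θh z) := by
    have : (fun z : f.ker => θh z) = fun z => (θ : N → ℂ) (eZ z) := funext hθhZ
    rw [this]
    exact hθZirr
  refine cyclic_quot_arith f.ker hab G.index hm hm2 hθh hθZ (Ξ := fun h : H => ψ h)
    (isCharacter_restrict (isCharacter_of_irr hψ) H) e ?_ ?_
  · intro z
    rw [hθhZ z]
    have h1 : ((z : H) : Γ) ∈ N := (hker z).1 z.2
    have h2 := hψG ⟨((z : H) : Γ), hNG h1⟩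
    have h3 := hresN ⟨((z : H) : Γ), hNG h1⟩ h1
    exact h2.trans h3
  · rw [hcardZ, ← hS, Finset.sum_filter]
    have h2 := sum_mem_eq H (fun γ : Γ => if γ ∉ G then Complex.normSq (ψ γ) else 0)
    refine (Finset.sum_congr rfl (fun h _ => ?_)).trans (h2.symm.trans ?_)
    · by_cases hh : (h : Γ) ∈ G
      · rw [if_neg (not_not.2 ((hkerG h).2 hh)), if_neg (not_not.2 hh)]
      · rw [if_pos (fun h2 => hh ((hkerG h).1 h2)), if_pos hh]
    · rw [← Finset.sum_filter, Finset.filter_filter]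

end Cfsg.Agent.Lib.Helper24.FullRamFrob
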