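import Mathlib
import Cfsg.Agent.Lib.Helper23.SelfCent5

/-! Self-centralizing elements of prime order: the normalizer is a Frobenius group with cyclic complement. -/

set_option autoImplicit false

namespace Cfsg.Agent.Lib.Helper24

open Cfsg.Agent.Lib.Helper23

variable {G : Type*} [Group G] [Finite G] {p : ℕ} [Fact p.Prime] {x : G}

theorem mem_normalizer_of_conj_mem (hx : orderOf x = p) {g t : G} (ht : t ∈ Subgroup.zpowers x)
    (ht1 : t ≠ 1) (hg : g * t * g⁻¹ ∈ Subgroup.zpowers x) :
    g ∈ Subgroup.normalizer (Subgroup.zpowers x : Set G) := by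
  have h1 := zpowers_eq_of_mem_of_ne_one Fact.out hx ht ht1
  have hne : g * t * g⁻¹ ≠ 1 := by
    intro h
    apply ht1
    have := congrArg (fun s => g⁻¹ * s * g) h
    simpa [mul_assoc] using this
  have h2 := zpowers_eq_of_mem_of_ne_one Fact.out hx hg hne
  rw [Subgroup.mem_normalizer_iff]
  intro h
  constructor
  · intro hh
    rw [← h1] at hh
    obtain ⟨k, rfl⟩ := Subgroup.mem_zpowers_iff.1 hh
    rw [← conj_zpow, ← h2]
    exact Subgroup.zpow_mem _ (Subgroup.mem_zpowers _) k
  · intro hh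
    rw [← h2] at hh
    obtain ⟨k, hk⟩ := Subgroup.mem_zpowers_iff.1 hh
    rw [conj_zpow] at hk
    have h3 : t ^ k = h := by
      have := congrArg (fun s => g⁻¹ * s * g) hk
      simpa [mul_assoc] using this
    rw [← h3, ← h1]
    exact Subgroup.zpow_mem _ (Subgroup.mem_zpowers _) k

theorem commute_of_mem_zpowers {a b : G} (ha : a ∈ Subgroup.zpowers x) (hb : b ∈ Subgroup.zpowers x) :
    a * b = b * a := by
  obtain ⟨i, rfl⟩ := Subgroup.mem_zpowers_iff.1 ha
  obtain ⟨j, rfl⟩ := Subgroup.mem_zpowers_iff.1 hb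
  exact (Commute.refl x).zpow_zpow i j

/-- `[N_G(⟨x⟩) : ⟨x⟩] * t = p - 1`. -/
theorem relIndex_mul_card_classes_eq (hx : orderOf x = p)
    (hC : Subgroup.centralizer ({x} : Set G) = Subgroup.zpowers x) :
    (Subgroup.zpowers x).relIndex (Subgroup.normalizer (Subgroup.zpowers x : Set G)) *
      Nat.card {C : ConjClasses G // ∃ g ∈ C.carrier, orderOf g = p} = p - 1 := by
  apply le_antisymm (relIndex_mul_card_classes_le hx hC)
  set N := Subgroup.normalizer (Subgroup.zpowers x : Set G) with hN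
  rw [← card_zpowers_ne_one hx, Subgroup.relIndex, Subgroup.index_eq_card, ← Nat.card_prod]
  let r := Function.surjInv (toClass_surjective hx hC)
  have hr : ∀ c, toClass hx (r c) = c := Function.surjInv_eq (toClass_surjective hx hC)
  let F : (N ⧸ (Subgroup.zpowers x).subgroupOf N) ×
      {C : ConjClasses G // ∃ g ∈ C.carrier, orderOf g = p} →
      {y : G // y ∈ Subgroup.zpowers x ∧ y ≠ 1} := fun qc =>
    ⟨(qc.1.out : G) * (r qc.2).1 * (qc.1.out : G)⁻¹,
      (Subgroup.mem_normalizer_iff.1 qc.1.out.2 _).1 (r qc.2).2.1, by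
        intro h
        apply (r qc.2).2.2
        have := congrArg (fun t => (qc.1.out : G)⁻¹ * t * (qc.1.out : G)) h
        simpa [mul_assoc] using this⟩
  apply Nat.card_le_card_of_surjective F
  intro u
  have h1 : toClass hx (r (toClass hx u)) = toClass hx u := hr _
  have h2 : ConjClasses.mk (r (toClass hx u)).1 = ConjClasses.mk u.1 := congrArg Subtype.val h1
  rw [ConjClasses.mk_eq_mk_iff_isConj, isConj_iff] at h2
  obtain ⟨g, hg⟩ := h2
  have hgN : g ∈ N := mem_normalizer_of_conj_mem hx (r (toClass hx u)).2.1 (r (toClass hx u)).2.2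
    (by rw [hg]; exact u.2.1)
  obtain ⟨z, hz⟩ := QuotientGroup.mk_out_eq_mul ((Subgroup.zpowers x).subgroupOf N) (⟨g, hgN⟩ : N)
  refine ⟨(QuotientGroup.mk (⟨g, hgN⟩ : N), toClass hx u), ?_⟩
  apply Subtype.ext
  show ((QuotientGroup.mk (⟨g, hgN⟩ : N) : N ⧸ (Subgroup.zpowers x).subgroupOf N).out : G) *
    (r (toClass hx u)).1 *
    ((QuotientGroup.mk (⟨g, hgN⟩ : N) : N ⧸ (Subgroup.zpowers x).subgroupOf N).out : G)⁻¹ = u.1
  rw [hz]
  have hzP : ((z : N) : G) ∈ Subgroup.zpowers x := z.2
  have hcomm := commute_of_mem_zpowers hzP (r (toClass hx u)).2.1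
  rw [← hg]
  show g * ((z : N) : G) * (r (toClass hx u)).1 * (g * ((z : N) : G))⁻¹ = _
  calc g * ((z : N) : G) * (r (toClass hx u)).1 * (g * ((z : N) : G))⁻¹
      = g * (((z : N) : G) * (r (toClass hx u)).1) * ((z : N) : G)⁻¹ * g⁻¹ := by group
    _ = g * ((r (toClass hx u)).1 * ((z : N) : G)) * ((z : N) : G)⁻¹ * g⁻¹ := by rw [hcomm]
    _ = g * (r (toClass hx u)).1 * g⁻¹ := by group

/-- the normalizer splits over `⟨x⟩` with a cyclic complement -/
theorem exists_cyclic_complement (hx : orderOf x = p)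
    (hC : Subgroup.centralizer ({x} : Set G) = Subgroup.zpowers x) :
    ∃ y : ↥(Subgroup.normalizer (Subgroup.zpowers x : Set G)),
      Subgroup.IsComplement' ((Subgroup.zpowers x).subgroupOf
        (Subgroup.normalizer (Subgroup.zpowers x : Set G))) (Subgroup.zpowers y) := by
  set N := Subgroup.normalizer (Subgroup.zpowers x : Set G) with hN
  set P' := (Subgroup.zpowers x).subgroupOf N with hP'
  have hle : Subgroup.zpowers x ≤ N := Subgroup.le_normalizer
  have hcardP : Nat.card P' = p := by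
    rw [hP', Nat.card_congr (Subgroup.subgroupOfEquivOfLe hle).toEquiv, Nat.card_zpowers, hx]
  have hidx : P'.index * Nat.card {C : ConjClasses G // ∃ g ∈ C.carrier, orderOf g = p} = p - 1 :=
    relIndex_mul_card_classes_eq hx hC
  have hp1 : 0 < p - 1 := Nat.sub_pos_of_lt (Fact.out : p.Prime).one_lt
  have hidx_pos : 0 < P'.index := Nat.pos_of_ne_zero (fun h => by rw [h, zero_mul] at hidx; omega)
  have hidx_lt : P'.index < p := by
    have : P'.index ∣ p - 1 := ⟨_, hidx.symm⟩
    have := Nat.le_of_dvd hp1 this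
    omega
  have hcop : Nat.Coprime (Nat.card P') P'.index := by
    rw [hcardP, Nat.Prime.coprime_iff_not_dvd Fact.out]
    exact Nat.not_dvd_of_pos_of_lt hidx_pos hidx_lt
  obtain ⟨H, hH⟩ := Subgroup.exists_right_complement'_of_coprime hcop
  haveI : Fact (Nat.card (Subgroup.zpowers x)).Prime := ⟨by
    rw [Nat.card_zpowers, hx]; exact Fact.out⟩
  let f : H →* (ZMod (Nat.card (Subgroup.zpowers x)))ˣ :=
    ((IsCyclic.mulAutMulEquiv (Subgroup.zpowers x)).toMonoidHom.comp
      (Subgroup.zpowers x).normalizerMonoidHom).comp H.subtype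
  have hf : Function.Injective f := by
    rw [injective_iff_map_eq_one]
    intro h hh
    have h1 : (Subgroup.zpowers x).normalizerMonoidHom (h : N) = 1 := by
      apply (IsCyclic.mulAutMulEquiv (Subgroup.zpowers x)).injective
      rw [map_one]
      exact hh
    have h2 : (h : N) ∈ (Subgroup.zpowers x).normalizerMonoidHom.ker := h1
    rw [Subgroup.normalizerMonoidHom_ker, Subgroup.mem_subgroupOf] at h2
    have h3 : ((h : N) : G) ∈ Subgroup.centralizer ({x} : Set G) :=
      Subgroup.centralizer_le (by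
        intro a ha
        rw [Set.mem_singleton_iff.1 ha]
        exact Subgroup.mem_zpowers x) h2
    rw [hC] at h3
    have h4 : (h : N) ∈ P' ⊓ H := ⟨h3, h.2⟩
    rw [hH.disjoint.eq_bot, Subgroup.mem_bot] at h4
    exact Subtype.ext h4
  haveI : IsCyclic H := isCyclic_of_injective f hf
  obtain ⟨y, hy⟩ := IsCyclic.exists_generator (α := H)
  refine ⟨(y : N), ?_⟩
  have hHy : Subgroup.zpowers (y : N) = H := by
    apply le_antisymm
    · exact Subgroup.zpowers_le.2 y.2
    · intro h hh
      obtain ⟨k, hk⟩ := Subgroup.mem_zpowers_iff.1 (hy ⟨h, hh⟩)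
      refine Subgroup.mem_zpowers_iff.2 ⟨k, ?_⟩
      have := congrArg Subtype.val hk
      simpa using this
  rw [hHy]
  exact hH

end Cfsg.Agent.Lib.Helper24
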