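import Mathlib
import Cfsg.Agent.Lib.Helper24.SelfCentGT
import Cfsg.Agent.CharLib.Ind
import Cfsg.Agent.CharLib.Complete

/-! Self-centralizing elements of prime order: the Bessel inequality for the indicator of the elements of order `p`. -/

set_option autoImplicit false

namespace Cfsg.Agent.Lib.Helper24

open Cfsg Cfsg.Agent Cfsg.Agent.CharLib Cfsg.Agent.CharLib.H2 Cfsg.Agent.Lib.Helper23
open scoped ComplexConjugate

theorem parseval' {K : Type*} [Group K] [Fintype K] {t : K → ℂ} (ht : IsClassFunction K t) :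
    ∑ ζ : IrrCharacter K, classInner t (ζ : K → ℂ) * conj (classInner t (ζ : K → ℂ)) =
      classInner t t := by
  conv_rhs => rhs; rw [classFunction_eq_sum ht]
  rw [classInner_sum_right]
  apply Finset.sum_congr rfl
  intro ζ _
  rw [classInner_smul_right, mul_comm]

/-- Bessel's inequality for two distinct irreducible characters -/
theorem bessel_two {K : Type*} [Group K] [Fintype K] {t : K → ℂ} (ht : IsClassFunction K t)
    {ζ₁ ζ₂ : IrrCharacter K} (hne : ζ₁ ≠ ζ₂) :
    Complex.normSq (classInner t (ζ₁ : K → ℂ)) + Complex.normSq (classInner t (ζ₂ : K → ℂ)) ≤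
      (classInner t t).re := by
  classical
  rw [← parseval' ht]
  simp only [Complex.mul_conj]
  rw [Complex.re_sum]
  simp only [Complex.ofReal_re]
  rw [← Finset.sum_pair (f := fun ζ : IrrCharacter K => Complex.normSq (classInner t (ζ : K → ℂ))) hne]
  apply Finset.sum_le_sum_of_subset_of_nonneg (Finset.subset_univ _)
  intro i _ _
  exact Complex.normSq_nonneg _

variable {G : Type*} [Group G] [Fintype G] {p : ℕ} [Fact p.Prime] {x : G}

theorem ti_ineq (hx : orderOf x = p) (N : Subgroup G)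
    (hN : N = Subgroup.normalizer (Subgroup.zpowers x : Set G)) [Fintype N] (P' : Subgroup N)
    (hP' : P' = (Subgroup.zpowers x).subgroupOf N) [Fintype P']
    (χ : IrrCharacter G) (hχ1 : (χ : G → ℂ) ≠ fun _ => 1) (a d : ℕ) (hd : (χ : G → ℂ) 1 = d)
    (ha : ∑ u : P', (χ : G → ℂ) ((u : N) : G) = (p : ℂ) * a) :
    ((p : ℝ) - 1) ^ 2 + ((p : ℝ) * a - d) ^ 2 ≤ ((p : ℝ) - 1) * (Nat.card N) := by
  classical
  haveI : P'.Normal := by subst hN; rw [hP']; infer_instance
  have hle : Subgroup.zpowers x ≤ N := by rw [hN]; exact Subgroup.le_normalizer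
  have hcardP : Fintype.card P' = p := by
    rw [← Nat.card_eq_fintype_card, hP', Nat.card_congr (Subgroup.subgroupOfEquivOfLe hle).toEquiv,
      Nat.card_zpowers, hx]
  let φ0 : P' → ℂ := fun u => if u = 1 then 0 else 1
  set φ : N → ℂ := extendByZero P' φ0 with hφ
  have hsumφ : ∀ F : N → ℂ, ∑ n : N, φ n * F n = ∑ u : P', F u - F 1 := by
    intro F
    rw [hφ, sum_extendByZero_mul]
    have : ∀ u : P', φ0 u * F u = F u - if u = 1 then F 1 else 0 := by
      intro u
      by_cases hu : u = 1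
      · simp [φ0, hu]
      · simp [φ0, hu]
    simp only [this]
    rw [Finset.sum_sub_distrib, Finset.sum_ite_eq' , if_pos (Finset.mem_univ _)]
  have hφcl : IsClassFunction N φ := by
    intro n h
    by_cases hn : n ∈ P'
    · have hn' : h * n * h⁻¹ ∈ P' := Subgroup.Normal.conj_mem inferInstance n hn h
      rw [hφ, extendByZero_of_mem _ _ hn, extendByZero_of_mem _ _ hn']
      by_cases h1 : n = 1
      · subst h1
        simp [φ0]
      · have h2 : h * n * h⁻¹ ≠ 1 := by
          intro h3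
          apply h1
          have := congrArg (fun s => h⁻¹ * s * h) h3
          simpa [mul_assoc] using this
        have e1 : (⟨n, hn⟩ : P') ≠ 1 := fun h4 => h1 (congrArg Subtype.val h4)
        have e2 : (⟨h * n * h⁻¹, hn'⟩ : P') ≠ 1 := fun h4 => h2 (congrArg Subtype.val h4)
        simp [φ0, e1, e2]
    · have hn' : h * n * h⁻¹ ∉ P' := by
        intro h3
        apply hn
        have := Subgroup.Normal.conj_mem (inferInstance : P'.Normal) _ h3 h⁻¹
        simpa [mul_assoc] using this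
      rw [hφ, extendByZero_of_not_mem _ _ hn, extendByZero_of_not_mem _ _ hn']
  have hφT : ∀ n : N, (n : G) ∉ (Subgroup.zpowers x : Set G) → φ n = 0 := by
    intro n hn
    exact extendByZero_of_not_mem _ _ (by rw [hP']; exact hn)
  have hφ1 : φ 1 = 0 := by
    rw [hφ, extendByZero_of_mem _ _ (Subgroup.one_mem _)]
    simp [φ0]
  have hTI : ∀ g : G, g ∉ Subgroup.normalizer (Subgroup.zpowers x : Set G) →
      ∀ t ∈ (Subgroup.zpowers x : Set G), g * t * g⁻¹ ∈ (Subgroup.zpowers x : Set G) → t = 1 := by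
    intro g hg t ht hgt
    by_contra ht1
    exact hg (mem_normalizer_of_conj_mem hx ht ht1 hgt)
  set ϑ : G → ℂ := indFun N φ with hϑ
  have hϑcl : IsClassFunction G ϑ := isClassFunction_indFun _ _
  have hN0 : (Nat.card N : ℂ) ≠ 0 := by exact_mod_cast Nat.card_pos.ne'
  have hnorm : classInner ϑ ϑ = (Nat.card N : ℂ)⁻¹ * ((p : ℂ) - 1) := by
    have hiso : classInner (indFun N φ) (indFun N φ) = classInner φ φ := by
      clear_value φ
      subst hN
      exact indFun_isometry_on_TI (Subgroup.zpowers x : Set G) hTI φ φ hφcl hφT hφT hφ1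
    rw [hϑ, hiso, classInner, hsumφ, hφ1, map_zero, sub_zero]
    congr 1
    have : ∀ u : P', conj (φ u) = 1 - if u = 1 then 1 else 0 := by
      intro u
      rw [hφ, extendByZero_coe]
      by_cases hu : u = 1
      · simp [φ0, hu]
      · simp [φ0, hu]
    simp only [this]
    rw [Finset.sum_sub_distrib, Finset.sum_ite_eq', if_pos (Finset.mem_univ _), Finset.sum_const,
      Finset.card_univ, hcardP]
    simp
  have hone : classInner ϑ (fun _ : G => (1 : ℂ)) = (Nat.card N : ℂ)⁻¹ * ((p : ℂ) - 1) := by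
    rw [hϑ, frobenius_reciprocity _ _ (isClassFunction_of_irr isIrrCharacter_one), classInner, hsumφ]
    congr 1
    rw [Finset.sum_const, Finset.card_univ, hcardP]
    simp
  have hchi : classInner ϑ (χ : G → ℂ) = (Nat.card N : ℂ)⁻¹ * ((p : ℂ) * a - d) := by
    rw [hϑ, frobenius_reciprocity _ _ (isClassFunction_of_irr χ.2), classInner, hsumφ]
    congr 1
    rw [← map_sum, ha]
    have : (χ : G → ℂ) ((1 : N) : G) = d := hd
    rw [this]
    simp
  have hne : (⟨fun _ => 1, isIrrCharacter_one⟩ : IrrCharacter G) ≠ χ := by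
    intro h
    exact hχ1 (congrArg Subtype.val h).symm
  have hb := bessel_two hϑcl hne
  rw [hone, hchi, hnorm] at hb
  have hNr : (0 : ℝ) < (Nat.card N : ℝ) := by exact_mod_cast Nat.card_pos
  have e1 : (Nat.card N : ℂ)⁻¹ * ((p : ℂ) - 1) = (((Nat.card N : ℝ)⁻¹ * ((p : ℝ) - 1) : ℝ) : ℂ) := by
    push_cast; ring
  have e2 : (Nat.card N : ℂ)⁻¹ * ((p : ℂ) * a - d) =
      (((Nat.card N : ℝ)⁻¹ * ((p : ℝ) * a - d) : ℝ) : ℂ) := by
    push_cast; ring
  rw [e1, e2, Complex.normSq_ofReal, Complex.normSq_ofReal, Complex.ofReal_re] at hb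
  have h3 : ((Nat.card N : ℝ)⁻¹ * ((p : ℝ) - 1) * ((Nat.card N : ℝ)⁻¹ * ((p : ℝ) - 1)) +
      (Nat.card N : ℝ)⁻¹ * ((p : ℝ) * a - d) * ((Nat.card N : ℝ)⁻¹ * ((p : ℝ) * a - d))) *
      (Nat.card N : ℝ) ^ 2 ≤ (Nat.card N : ℝ)⁻¹ * ((p : ℝ) - 1) * (Nat.card N : ℝ) ^ 2 :=
    mul_le_mul_of_nonneg_right hb (by positivity)
  have hNr0 : (Nat.card N : ℝ) ≠ 0 := hNr.ne'
  field_simp at h3
  nlinarith [h3]

end Cfsg.Agent.Lib.Helper24
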