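import Mathlib
import Cfsg.Agent.Lib.Helper24.SelfCentTI
import Cfsg.Agent.Lib.Helper24.FrobLocal
import Cfsg.Agent.Lib.Helper24.DetDiag

/-! Self-centralizing elements of prime order: a character of degree `p - 1` has determinant `-1` on a generator of
the complement when the number of classes of elements of order `p` is odd. -/

set_option autoImplicit false

namespace Cfsg.Agent.Lib.Helper24

open Cfsg Cfsg.Agent Cfsg.Agent.CharLib Cfsg.Agent.Lib.Helper23
open scoped ComplexConjugate

variable {G : Type*} [Group G] [Fintype G] {p : ℕ} [Fact p.Prime] {x : G}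

theorem exists_hom_neg_one_aux (hx : orderOf x = p)
    (hC : Subgroup.centralizer ({x} : Set G) = Subgroup.zpowers x) (hp2 : p ≠ 2) (t : ℕ)
    (hodd : Odd t) (χ : IrrCharacter G) (hχ : (χ : G → ℂ) 1 = ((p - 1 : ℕ) : ℂ))
    (N : Subgroup G) (hN : N = Subgroup.normalizer (Subgroup.zpowers x : Set G)) (y : N)
    (hy : Subgroup.IsComplement' ((Subgroup.zpowers x).subgroupOf N) (Subgroup.zpowers y))
    (hidx : ((Subgroup.zpowers x).subgroupOf N).index * t = p - 1) :
    ∃ (D : G →* ℂˣ) (y : G), D y = -1 := by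
  classical
  have hpp : p.Prime := Fact.out
  obtain ⟨P', hP'⟩ : ∃ P' : Subgroup N, P' = (Subgroup.zpowers x).subgroupOf N := ⟨_, rfl⟩
  rw [← hP'] at hy hidx
  letI : Fintype N := Fintype.ofFinite _
  letI : Fintype P' := Fintype.ofFinite _
  letI : Fintype (Subgroup.zpowers y) := Fintype.ofFinite _
  haveI : P'.Normal := by subst hN; rw [hP']; infer_instance
  have hle : Subgroup.zpowers x ≤ N := by rw [hN]; exact Subgroup.le_normalizer
  have hcardP : Nat.card P' = p := by
    rw [hP', Nat.card_congr (Subgroup.subgroupOfEquivOfLe hle).toEquiv, Nat.card_zpowers, hx]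
  set e := orderOf y with he
  have hcardH : Nat.card (Subgroup.zpowers y) = e := Nat.card_zpowers y
  have hidx' : P'.index = e := by rw [hy.symm.index_eq_card, hcardH]
  rw [hidx'] at hidx
  have hcardN : Nat.card N = p * e := by rw [← hy.card_mul_card, hcardP, hcardH]
  have hp3 : 3 ≤ p := by
    have := hpp.two_le
    omega
  have hpodd : Odd p := hpp.odd_of_ne_two hp2
  have heven : Even e := by
    have h1 : Even (e * t) := by
      rw [hidx]
      obtain ⟨k, hk⟩ := hpodd
      exact ⟨k, by omega⟩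
    rcases Nat.even_mul.1 h1 with h | h
    · exact h
    · exact absurd h (Nat.not_even_iff_odd.2 hodd)
  have he0 : 0 < e := orderOf_pos y
  have he2 : 2 ≤ e := by
    obtain ⟨k, hk⟩ := heven
    omega
  -- free action
  have hfree : ∀ n : N, n ∉ P' → ∀ u ∈ P', u * n = n * u → u = 1 := by
    intro n hn u hu hcomm
    by_contra hu1
    apply hn
    have huP : (u : G) ∈ Subgroup.zpowers x := by rw [hP'] at hu; exact hu
    have hu1' : (u : G) ≠ 1 := fun h => hu1 (Subtype.ext h)
    have h1 := centralizer_eq_of_mem_zpowers hx hC huP hu1'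
    have h2 : (n : G) ∈ Subgroup.centralizer ({(u : G)} : Set G) := by
      rw [mem_centralizer_singleton]
      exact (congrArg Subtype.val hcomm).symm
    rw [h1] at h2
    rw [hP']
    exact h2
  have hχc := isCharacter_of_irr χ.2
  have hψ : IsCharacter N (fun n : N => (χ : G → ℂ) n) := isCharacter_restrict hχc N
  obtain ⟨a, ha⟩ := classInner_char_nat (isCharacter_restrict hψ P')
    (isCharacter_of_irr (isIrrCharacter_one (G := P')))
  have hp0 : (p : ℂ) ≠ 0 := by exact_mod_cast hpp.ne_zero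
  have hsum : ∑ u : P', (χ : G → ℂ) ((u : N) : G) = (p : ℂ) * a := by
    rw [← ha, classInner, hcardP]
    simp
    field_simp
  obtain ⟨z, hz⟩ := exists_int_of_free hψ P' (Subgroup.zpowers y) hy hfree
  rw [hsum, hcardP, hcardH] at hz
  have hz1 : (χ : G → ℂ) ((1 : N) : G) = ((p - 1 : ℕ) : ℂ) := hχ
  rw [hz1] at hz
  have hz2 : (((p - 1 : ℕ) : ℤ) : ℂ) = (((a : ℤ) + e * z : ℤ) : ℂ) := by
    push_cast
    apply mul_left_cancel₀ hp0
    rw [hz]; ring
  have hz3 : ((p - 1 : ℕ) : ℤ) = (a : ℤ) + e * z := by exact_mod_cast hz2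
  have hae : (e : ℤ) ∣ (a : ℤ) := by
    refine ⟨t - z, ?_⟩
    have : ((p - 1 : ℕ) : ℤ) = (e : ℤ) * t := by rw [← hidx]; push_cast; ring
    linarith
  have hae' : e ∣ a := by exact_mod_cast hae
  have hχ1 : (χ : G → ℂ) ≠ fun _ => 1 := by
    intro h
    have h1 := congrFun h 1
    rw [hχ] at h1
    have h2 : p - 1 = 1 := by exact_mod_cast h1
    omega
  have hti := ti_ineq hx N hN P' hP' χ hχ1 a (p - 1) hχ hsum
  rw [hcardN] at hti
  have ha0 : a = 0 := by
    by_contra hne
    have hale : e ≤ a := Nat.le_of_dvd (Nat.pos_of_ne_zero hne) hae'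
    have h1 : ((p - 1 : ℕ) : ℝ) = (p : ℝ) - 1 := by
      rw [Nat.cast_sub hpp.one_lt.le]; simp
    rw [h1] at hti
    push_cast at hti
    have hpr : (3 : ℝ) ≤ p := by exact_mod_cast hp3
    have her : (2 : ℝ) ≤ e := by exact_mod_cast he2
    have har : (e : ℝ) ≤ a := by exact_mod_cast hale
    have hB : (p : ℝ) * e - (p - 1) ≤ p * a - (p - 1) := by nlinarith
    have hB0 : 0 < (p : ℝ) * e - (p - 1) := by nlinarith
    have hsq : ((p : ℝ) * e - (p - 1)) ^ 2 ≤ (p * a - (p - 1)) ^ 2 := by
      apply pow_le_pow_left₀ hB0.le hB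
    have hfac : 0 < ((p : ℝ) * e - (p - 1)) * (p * e - 2 * (p - 1)) := by
      apply mul_pos hB0
      nlinarith
    nlinarith
  rw [ha0] at hsum
  have hsum0 : ∑ u : P', (fun n : N => (χ : G → ℂ) n) (u : N) = 0 := by
    rw [hsum]; simp
  have hvan : ∀ n : N, n ∉ P' → (χ : G → ℂ) n = 0 := fun n hn =>
    apply_eq_zero_of_free hψ P' hfree hsum0 hn
  have hv : ∀ i, 0 < i → i < e → (χ : G → ℂ) ((y : G) ^ i) = 0 := by
    intro i hi0 hie
    have h1 : y ^ i ∉ P' := by
      intro hmem
      have h2 : y ^ i ∈ P' ⊓ Subgroup.zpowers y :=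
        ⟨hmem, Subgroup.pow_mem _ (Subgroup.mem_zpowers y) i⟩
      rw [hy.disjoint.eq_bot, Subgroup.mem_bot] at h2
      have h3 := orderOf_dvd_of_pow_eq_one h2
      have := Nat.le_of_dvd hi0 h3
      omega
    exact hvan (y ^ i) h1
  have hdet := detChar_of_vanish hχc (y : G) e t heven he0 (by rw [he, Subgroup.orderOf_coe])
    (by rw [hχ, ← hidx]; push_cast; ring) hv
  rw [hodd.neg_one_pow] at hdet
  obtain ⟨D, hD⟩ := H6.exists_detHom hχc
  refine ⟨D, y, Units.ext ?_⟩
  rw [hD, hdet]
  simp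

theorem exists_hom_neg_one (hx : orderOf x = p)
    (hC : Subgroup.centralizer ({x} : Set G) = Subgroup.zpowers x) (hp2 : p ≠ 2) (t : ℕ)
    (ht : Nat.card {C : ConjClasses G // ∃ g ∈ C.carrier, orderOf g = p} = t) (hodd : Odd t)
    (χ : IrrCharacter G) (hχ : (χ : G → ℂ) 1 = ((p - 1 : ℕ) : ℂ)) :
    ∃ (D : G →* ℂˣ) (y : G), D y = -1 := by
  obtain ⟨y, hy⟩ := exists_cyclic_complement hx hC
  have hidx := relIndex_mul_card_classes_eq hx hC
  rw [ht, Subgroup.relIndex] at hidx
  exact exists_hom_neg_one_aux hx hC hp2 t hodd χ hχ _ rfl y hy hidx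

theorem even_index_commutator_of_hom {G : Type*} [Group G] [Finite G] (D : G →* ℂˣ) (y : G)
    (h : D y = -1) : Even (commutator G).index := by
  have h1 : (Abelianization.lift D (Abelianization.of y)) ^ Nat.card (Abelianization G) = 1 := by
    rw [← map_pow, pow_card_eq_one', map_one]
  rw [Abelianization.lift_apply_of, h] at h1
  have h2 : ((-1 : ℂ)) ^ Nat.card (Abelianization G) = 1 := by
    have := congrArg (fun u : ℂˣ => (u : ℂ)) h1
    simpa using this
  rw [neg_one_pow_eq_one_iff_even (by norm_num)] at h2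
  rw [Subgroup.index_eq_card]
  exact h2

end Cfsg.Agent.Lib.Helper24
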