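import Mathlib
import Cfsg.Agent.S4499
import Cfsg.Agent.Lib.Helper23.WeakOrth
import Cfsg.Agent.Lib.Helper23.DefectZero
import Cfsg.Agent.Lib.Helper23.CharDeg2
import Cfsg.Agent.BlockLib.KG.PrinOver
import Cfsg.Agent.CharLib.Degree

/-! Groups of order `p^a q^b r^c`, `a ≤ 2`: characters of `q`-power degree. -/

set_option autoImplicit false

namespace Cfsg.Agent.Lib.Helper24

open Cfsg Cfsg.Agent Cfsg.Agent.BlockLib Cfsg.Agent.CharLib Cfsg.Agent.Lib.Helper23
open scoped ComplexConjugate

theorem false_of_sum {G : Type*} [Group G] [Fintype G] (r : ℕ) (hr : r.Prime)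
    (S : Finset (IrrCharacter G)) (y : G)
    (h1 : (⟨fun _ => 1, isIrrCharacter_one⟩ : IrrCharacter G) ∈ S)
    (hsum : ∑ χ ∈ S, (χ : G → ℂ) 1 * (χ : G → ℂ) y = 0)
    (h : ∀ χ ∈ S, (χ : G → ℂ) ≠ (fun _ => 1) →
      r ∣ charDegree (χ : G → ℂ) ∨ (χ : G → ℂ) y = 0) : False := by
  classical
  set one : IrrCharacter G := ⟨fun _ => 1, isIrrCharacter_one⟩ with hone
  rw [← Finset.add_sum_erase S _ h1] at hsum
  set z : ℂ := ∑ χ ∈ S.erase one, ((charDegree (χ : G → ℂ) / r : ℕ) : ℂ) * (χ : G → ℂ) y with hz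
  have hzi : IsIntegral ℤ z := by
    apply IsIntegral.sum
    intro χ _
    exact IsIntegral.mul (isIntegral_natCast _) (isCharacter_isIntegral (isCharacter_of_irr χ.2) y)
  have hrz : ∑ χ ∈ S.erase one, (χ : G → ℂ) 1 * (χ : G → ℂ) y = r * z := by
    rw [hz, Finset.mul_sum]
    apply Finset.sum_congr rfl
    intro χ hχ
    have hne : (χ : G → ℂ) ≠ fun _ => 1 := fun h => (Finset.mem_erase.1 hχ).1 (Subtype.ext h)
    rcases h χ (Finset.mem_of_mem_erase hχ) hne with h | h
    · rw [← charDegree_cast_irr χ, ← mul_assoc, ← Nat.cast_mul, Nat.mul_div_cancel' h]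
    · rw [h]; simp
  rw [hrz] at hsum
  have hr0 : (r : ℂ) ≠ 0 := by exact_mod_cast hr.ne_zero
  have h2 : ((1 : ℕ) : ℂ) / (r : ℂ) = -z := by
    have h3 : (1 : ℂ) * 1 + r * z = 0 := hsum
    field_simp
    linear_combination h3
  have h4 := dvd_of_isIntegral_div (a := 1) (b := r) hr.ne_zero (by rw [h2]; exact hzi.neg)
  exact hr.one_lt.ne' (Nat.dvd_one.1 h4)

theorem exists_q_power {G : Type*} [Group G] [Finite G] [Nontrivial G] (p q r a b c : ℕ)
    (hp : p.Prime) (hq : q.Prime) (hr : r.Prime) (hpq : p ≠ q) (hpr : p ≠ r)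
    (ha : a ≤ 2) (hG : Nat.card G = p ^ a * q ^ b * r ^ c) :
    ∃ χ : IrrCharacter G, (χ : G → ℂ) ≠ (fun _ => 1) ∧ ∃ k : ℕ, charDegree (χ : G → ℂ) = q ^ k := by
  classical
  letI := Fintype.ofFinite G
  by_contra hcon
  push Not at hcon
  have hdeg : ∀ χ : IrrCharacter G, (χ : G → ℂ) ≠ (fun _ => 1) →
      p ∣ charDegree (χ : G → ℂ) ∨ r ∣ charDegree (χ : G → ℂ) := by
    intro χ hχ
    have h1 := charDegree_dvd_card χ
    rw [hG] at h1
    by_contra h2
    push Not at h2
    have h3 : (charDegree (χ : G → ℂ)).Coprime (p ^ a) :=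
      Nat.Coprime.pow_right _ (Nat.Coprime.symm ((Nat.Prime.coprime_iff_not_dvd hp).2 h2.1))
    have h4 : (charDegree (χ : G → ℂ)).Coprime (r ^ c) :=
      Nat.Coprime.pow_right _ (Nat.Coprime.symm ((Nat.Prime.coprime_iff_not_dvd hr).2 h2.2))
    have h5 : charDegree (χ : G → ℂ) ∣ q ^ b :=
      h3.dvd_of_dvd_mul_left (h4.dvd_of_dvd_mul_right h1)
    obtain ⟨k, -, hk⟩ := (Nat.dvd_prime_pow hq).1 h5
    exact hcon χ hχ k hk
  rcases Nat.eq_zero_or_pos a with ha0 | hapos
  · subst ha0
    obtain ⟨y, hy⟩ := exists_ne (1 : G)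
    apply false_of_sum r hr Finset.univ y (Finset.mem_univ _)
    · rw [sum_irr_one_mul, if_neg hy]
    · intro χ _ hχ
      left
      rcases hdeg χ hχ with h | h
      · exfalso
        have h1 := h.trans (charDegree_dvd_card χ)
        rw [hG, pow_zero, one_mul, Nat.Prime.dvd_mul hp] at h1
        rcases h1 with h1 | h1
        · exact hpq ((Nat.prime_dvd_prime_iff_eq hp hq).1 (hp.dvd_of_dvd_pow h1))
        · exact hpr ((Nat.prime_dvd_prime_iff_eq hp hr).1 (hp.dvd_of_dvd_pow h1))
      · exact h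
  · haveI : Fact p.Prime := ⟨hp⟩
    obtain ⟨M, hM⟩ := exists_isPModular p hp
    haveI := isPrime_of_isPModular hM
    have hpG : p ∣ Nat.card G := by
      rw [hG]
      exact Dvd.dvd.mul_right (Dvd.dvd.mul_right (dvd_pow_self p hapos.ne') _) _
    obtain ⟨y, hy⟩ := exists_prime_orderOf_dvd_card' p hpG
    have hfac : (Nat.card G).factorization p = a := by
      have hp0 := pow_ne_zero a hp.ne_zero
      have hq0 := pow_ne_zero b hq.ne_zero
      have hr0 := pow_ne_zero c hr.ne_zero
      rw [hG, Nat.factorization_mul (mul_ne_zero hp0 hq0) hr0,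
        Nat.factorization_mul hp0 hq0, Nat.Prime.factorization_pow hp,
        Nat.Prime.factorization_pow hq, Nat.Prime.factorization_pow hr]
      simp [hpq.symm, hpr.symm]
    have hone : (⟨fun _ => 1, isIrrCharacter_one⟩ : IrrCharacter G) ∈ principalBlock M G :=
      PrinOver.one_mem_principalBlock hM
    apply false_of_sum r hr (Finset.univ.filter (· ∈ principalBlock M G)) y⁻¹
    · exact Finset.mem_filter.2 ⟨Finset.mem_univ _, hone⟩
    · have h1 := weak_orth hM (principalBlock M G) isPBlock_principalBlock 1 y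
        (by rw [orderOf_one]; exact hp.one_lt.ne' ∘ Nat.dvd_one.1) (by rw [hy])
      rw [← h1]
      apply Finset.sum_congr rfl
      intro χ _
      rw [isCharacter_inv (isCharacter_of_irr χ.2)]
    · intro χ hχ hne
      have hχB : χ ∈ principalBlock M G := (Finset.mem_filter.1 hχ).2
      rcases hdeg χ hne with h | h
      · have ha12 : a = 1 ∨ a = 2 := by omega
        rcases ha12 with rfl | rfl
        · right
          apply irr_vanish_of_defect_zero χ.2 p 1 hp (by simpa using hpG) _ (by simpa using h)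
          · rw [orderOf_inv, hy]
          · intro h2
            have h3 := (Nat.Prime.pow_dvd_iff_le_factorization hp Nat.card_pos.ne').1 h2
            omega
        · exfalso
          have h2 := S4499.result p M hM hpG (principalBlock M G) isPBlock_principalBlock χ hχB
            (by rw [hfac]; simpa using h) _ hone
          rw [hfac] at h2
          have h3 : charDegree (fun _ : G => (1 : ℂ)) = 1 := by simp [charDegree]
          have h4 : p ^ (2 - 1) ∣ charDegree (fun _ : G => (1 : ℂ)) := h2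
          rw [h3] at h4
          simp at h4
          exact hp.one_lt.ne' h4
      · left; exact h

end Cfsg.Agent.Lib.Helper24
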